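import Cfsg.Agent.Lib.Helper11.Suzc2.K0

set_option autoImplicit false
set_option maxRecDepth 100000

namespace Cfsg.Agent.Lib.Helper11.Suzc2

theorem chkAll : ∀ j < 245, blk fc sc rt.get INV isH j = true :=
  guardB_spec (D := 8) (allR_join b0 b1 (by norm_num)) (by norm_num)

theorem clAll : ∀ jb < 68, cblk fc nc cc (256 * 245) 2160 6277101735386680763835789423207666416102355444464034512896 gens jb = true :=
  guardB_spec (D := 7) c0 (by norm_num)

theorem hN0 : getN nc 0 = 0 := by decide +kernel


end Cfsg.Agent.Lib.Helper11.Suzc2
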